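import Cfsg.Agent.Helper28.F22.Simple
import Cfsg.Agent.Helper28.TCL3

/-!
# Words in the generators of the presented group Fi22 (helper28)

Values of words, and equality of values checked on a base of the permutation representation of
degree 3510.
-/

set_option autoImplicit false

namespace Cfsg.Agent.Helper28.F22

open Cfsg.Spor

theorem fix_bot : Cfsg.Agent.Helper28.fixSub Cfsg.Agent.Helper28.C1687.cert.perm
    [Cfsg.Agent.Helper28.F22L.ov5 0, Cfsg.Agent.Helper28.F22L.ov4 0,
      Cfsg.Agent.Helper28.F22L.ov3 0, Cfsg.Agent.Helper28.F22L.ov2 0, 0] = ⊥ := by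
  have := finite
  have hlb := Cfsg.Agent.Helper28.F22L.lb_chain
  have e1 : 3510 * 2816 * 1680 * 243 * 16 = 64561751654400 := by norm_num
  rw [e1, card_eq] at hlb
  apply Subgroup.eq_bot_of_card_le
  exact Nat.le_of_mul_le_mul_left (by rw [Nat.mul_one]; exact hlb) (by norm_num)

/-- the value of a generator column -/
noncomputable abbrev gv (k : ℕ) : Fi22 :=
  Cfsg.Agent.Helper28.coxVal Fi22.edges Fi22.extra Cfsg.Agent.Helper28.C1687.gen
    Cfsg.Agent.Helper28.C1687.D.jc k

/-- the value of a word -/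
noncomputable abbrev wv (l : List ℕ) : Fi22 := (l.map gv).prod

theorem wv_nil : wv [] = 1 := rfl

theorem wv_append (l1 l2 : List ℕ) : wv (l1 ++ l2) = wv l1 * wv l2 := by
  show ((l1 ++ l2).map gv).prod = (l1.map gv).prod * (l2.map gv).prod
  rw [List.map_append, List.prod_append]

theorem wv_cons (k : ℕ) (l : List ℕ) : wv (k :: l) = gv k * wv l := by
  show ((k :: l).map gv).prod = gv k * (l.map gv).prod
  rw [List.map_cons, List.prod_cons]

theorem gv_of (k : ℕ) (hk : k < Cfsg.Agent.Helper28.C1687.D.jc) :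
    gv k = PresentedGroup.of (Cfsg.Agent.Helper28.C1687.gen k) :=
  Cfsg.Agent.Helper28.coxVal_of k hk

theorem wv_sing (k : ℕ) (hk : k < Cfsg.Agent.Helper28.C1687.D.jc) :
    wv [k] = PresentedGroup.of (Cfsg.Agent.Helper28.C1687.gen k) := by
  rw [wv_cons, wv_nil, mul_one]
  exact gv_of k hk

/-- equality of word values, checked on the base -/
theorem wv_eq (l1 l2 : List ℕ)
    (h1 : Cfsg.Agent.Helper28.letChk Cfsg.Agent.Helper28.C1687.D.jc l1 = true)
    (h2 : Cfsg.Agent.Helper28.letChk Cfsg.Agent.Helper28.C1687.D.jc l2 = true)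
    (h : Cfsg.Agent.Helper28.eqBase Cfsg.Agent.Helper28.C1687.T l1 l2
      [Cfsg.Agent.Helper28.F22L.ov5 0, Cfsg.Agent.Helper28.F22L.ov4 0,
        Cfsg.Agent.Helper28.F22L.ov3 0, Cfsg.Agent.Helper28.F22L.ov2 0, 0] = true) :
    wv l1 = wv l2 :=
  Cfsg.Agent.Helper28.C1687.cert.word_eq_base _ fix_bot l1 l2 h1 h2 h

/-- repetition of a word -/
noncomputable def rpt (m : ℕ) (l : List ℕ) : List ℕ :=
  Nat.rec (motive := fun _ => List ℕ) [] (fun _ ih => l ++ ih) m

theorem wv_pow (l : List ℕ) (m : ℕ) : (wv l) ^ m = wv (rpt m l) := by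
  induction m with
  | zero => rw [pow_zero]; rfl
  | succ m ih =>
    rw [pow_succ', ih, ← wv_append]
    rfl

end Cfsg.Agent.Helper28.F22
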