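import Cfsg.Agent.Helper28.Grp3
import Cfsg.Agent.Helper28.TCL3
import Cfsg.Agent.Helper28.F22.Words
import Cfsg.Agent.Helper28.U6.Main
import Cfsg.Agent.Helper28.C1687.OrbAll
import Cfsg.Prelude.Def_Sporadic

/-!
# The 3-transpositions of the presented group Fi22 (helper28)

The conjugates of the generator `a` form a class of 3510 3-transpositions generating Fi22; the
centraliser of `a` is the point stabiliser of the action on 3510 points, a non-split double cover of
`PSU(6, 2)`.
-/

set_option autoImplicit false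

namespace Cfsg.Agent.Helper28.F22T

open Cfsg.Spor Cfsg.Agent.Helper28

/-- the 3-transposition: the generator `a` -/
noncomputable def ta : Fi22 := F22.wv [0]

theorem ta_eq : ta = PresentedGroup.of Fi22.Gen.a := F22.wv_sing 0 (by decide)

theorem ta_sq : ta * ta = 1 := by
  rw [ta_eq]
  exact cox_sq Fi22.edges Fi22.extra Fi22.Gen.a (F22.node _)

theorem ta_ne_one : ta ≠ 1 := by
  rw [ta_eq]
  exact U6.a_ne_one

theorem orderOf_ta : orderOf ta = 2 :=
  orderOf_eq_prime (by rw [pow_two]; exact ta_sq) ta_ne_one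

theorem ta_central : ∀ h ∈ F22.HΩ, h * ta = ta * h := by
  rw [ta_eq]
  exact F22.a_central

/-! ### representatives of the double cosets of the point stabiliser -/

/-- a word leading to the orbit of 693 points -/
def x1w : List ℕ := [1, 2, 0, 1]

/-- a word leading to the orbit of 2816 points -/
def x2w : List ℕ := [1]

/-- a representative of the double coset of the orbit of 693 points -/
noncomputable def x1 : Fi22 := F22.wv x1w

/-- a representative of the double coset of the orbit of 2816 points -/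
noncomputable def x2 : Fi22 := F22.wv x2w

theorem inv_of_word (l : List ℕ) (hl : ∀ a ∈ l, a < Cfsg.Agent.Helper28.C1687.D.jc) :
    F22.wv l.reverse = (F22.wv l)⁻¹ :=
  Cfsg.Agent.Helper28.prod_reverse_inv _ l
    (fun a ha => Cfsg.Agent.Helper28.C1687.cert.valInv a (le_of_lt (hl a ha)))

theorem rel_x1 : (ta * (x1 * ta * x1⁻¹)) ^ 2 = 1 := by
  have h := F22.wv_eq
    (([0] ++ (x1w ++ ([0] ++ x1w.reverse))) ++ ([0] ++ (x1w ++ ([0] ++ x1w.reverse)))) []
    (by decide +kernel) (by decide +kernel) (by decide +kernel)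
  simp only [F22.wv_append] at h
  rw [inv_of_word x1w (by decide +kernel), F22.wv_nil] at h
  have h' : ta * (x1 * (ta * x1⁻¹)) * (ta * (x1 * (ta * x1⁻¹))) = 1 := h
  rw [pow_two, mul_assoc x1 ta x1⁻¹]
  exact h'

theorem rel_x2 : (ta * (x2 * ta * x2⁻¹)) ^ 3 = 1 := by
  have h := F22.wv_eq
    (([0] ++ (x2w ++ ([0] ++ x2w.reverse))) ++ (([0] ++ (x2w ++ ([0] ++ x2w.reverse))) ++
      ([0] ++ (x2w ++ ([0] ++ x2w.reverse))))) []
    (by decide +kernel) (by decide +kernel) (by decide +kernel)
  simp only [F22.wv_append] at h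
  rw [inv_of_word x2w (by decide +kernel), F22.wv_nil] at h
  have h' : ta * (x2 * (ta * x2⁻¹)) * (ta * (x2 * (ta * x2⁻¹)) * (ta * (x2 * (ta * x2⁻¹)))) = 1 := h
  rw [pow_succ, pow_two, mul_assoc x2 ta x2⁻¹, mul_assoc]
  exact h'

theorem double_cosets (y : Fi22) :
    y ∈ F22.HΩ ∨ ∃ i : Fin 2, ∃ h ∈ F22.HΩ, ∃ h' ∈ F22.HΩ, y = h * ![x1, x2] i * h' := by
  obtain ⟨e, he, he1⟩ := Cfsg.Agent.Helper28.C1687.cert.exists_equiv
  have o1 := (Cfsg.Agent.Helper28.C1687.cert.orbit_cert e he 693 Cfsg.Agent.Helper28.C1687.ov1 Cfsg.Agent.Helper28.C1687.op1 Cfsg.Agent.Helper28.C1687.otp1 Cfsg.Agent.Helper28.C1687.otw1 (by decide) Cfsg.Agent.Helper28.C1687.orb1_all Cfsg.Agent.Helper28.C1687.ov1_lt).1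
  have o2 := (Cfsg.Agent.Helper28.C1687.cert.orbit_cert e he 2816 Cfsg.Agent.Helper28.C1687.ov2 Cfsg.Agent.Helper28.C1687.op2 Cfsg.Agent.Helper28.C1687.otp2 Cfsg.Agent.Helper28.C1687.otw2 (by decide) Cfsg.Agent.Helper28.C1687.orb2_all Cfsg.Agent.Helper28.C1687.ov2_lt).1
  have m1 := Cfsg.Agent.Helper28.C1687.cert.equiv_mk_word e he he1 x1w (by decide +kernel)
    (Cfsg.Agent.Helper28.C1687.ov1 0) Cfsg.Agent.Helper28.C1687.ov1_lt (by decide +kernel)
  have m2 := Cfsg.Agent.Helper28.C1687.cert.equiv_mk_word e he he1 x2w (by decide +kernel)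
    (Cfsg.Agent.Helper28.C1687.ov2 0) Cfsg.Agent.Helper28.C1687.ov2_lt (by decide +kernel)
  have hidx : F22.HΩ.index = 3510 := Cfsg.Agent.Helper28.C1687.cert.index_eq
  refine Cfsg.Agent.Helper28.double_coset_cover F22.HΩ ![x1, x2] ![693, 2816] ?_ (by decide) (by decide)
    ?_ y
  · intro i
    fin_cases i
    · show (MulAction.orbit F22.HΩ (QuotientGroup.mk x1 : Fi22 ⧸ F22.HΩ)).ncard = 693
      rw [show (QuotientGroup.mk x1 : Fi22 ⧸ F22.HΩ) = _ from m1]
      exact o1
    · show (MulAction.orbit F22.HΩ (QuotientGroup.mk x2 : Fi22 ⧸ F22.HΩ)).ncard = 2816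
      rw [show (QuotientGroup.mk x2 : Fi22 ⧸ F22.HΩ) = _ from m2]
      exact o2
  · rw [hidx, Fin.sum_univ_two]
    rfl

theorem three_transp : ∀ d ∈ conjugatesOf ta, ∀ e ∈ conjugatesOf ta,
    (d * e) ^ 2 = 1 ∨ (d * e) ^ 3 = 1 := by
  apply Cfsg.Agent.Helper28.three_transp_of_reps F22.HΩ ta ta_central ta_sq
  intro y
  rcases double_cosets y with h | ⟨i, h, hh, h', hh', hy⟩
  · exact Or.inl h
  · right
    fin_cases i
    · exact ⟨x1, Or.inl rel_x1, h, hh, h', hh', hy⟩
    · exact ⟨x2, Or.inr rel_x2, h, hh, h', hh', hy⟩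

/-! ### the centraliser of `a` -/

theorem zpowers_ta_card : Nat.card (Subgroup.zpowers ta) = 2 := by
  rw [Nat.card_zpowers, orderOf_ta]

theorem centralizer_ta : Subgroup.centralizer ({ta} : Set Fi22) = F22.HΩ := by
  have hle : F22.HΩ ≤ Subgroup.centralizer ({ta} : Set Fi22) := by
    intro h hh
    rw [Subgroup.mem_centralizer_iff]
    intro y hy
    rw [Set.mem_singleton_iff.mp hy]
    exact (ta_central h hh).symm
  rcases F22.maximal _ hle with h | h
  · exact h
  · exfalso
    have hc : ∀ g : Fi22, g * ta = ta * g := by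
      intro g
      have hg : g ∈ Subgroup.centralizer ({ta} : Set Fi22) := by rw [h]; trivial
      exact ((Subgroup.mem_centralizer_iff.mp hg) ta rfl).symm
    have hN : (Subgroup.zpowers ta).Normal := by
      constructor
      intro x hx g
      obtain ⟨k, rfl⟩ := Subgroup.mem_zpowers_iff.mp hx
      have e : g * ta * g⁻¹ = ta := by rw [hc g, mul_inv_cancel_right]
      rw [← conj_zpow, e]
      exact Subgroup.zpow_mem_zpowers _ _
    have := F22.simple
    rcases hN.eq_bot_or_eq_top with h1 | h1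
    · exact ta_ne_one (Subgroup.zpowers_eq_bot.mp h1)
    · have h2 := zpowers_ta_card
      rw [h1, Subgroup.card_top, F22.card_eq] at h2
      norm_num at h2

theorem class_card : Nat.card (conjugatesOf ta) = 3510 := by
  rw [Cfsg.Agent.Helper28.card_conjugatesOf, centralizer_ta]
  exact Cfsg.Agent.Helper28.C1687.cert.index_eq

theorem class_closure : Subgroup.closure (conjugatesOf ta) = ⊤ := by
  have h := F22.normalClosure_a
  rw [← ta_eq] at h
  rw [← h]
  show Subgroup.closure (conjugatesOf ta) = Subgroup.closure (Group.conjugatesOfSet {ta})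
  rw [Group.conjugatesOfSet, Set.biUnion_singleton]

theorem three_class : Cfsg.IsThreeTranspositionClass (conjugatesOf ta) := by
  refine ⟨⟨?_, three_transp⟩, ⟨ta, mem_conjugatesOf_self, rfl⟩, class_closure⟩
  intro d hd
  obtain ⟨g, rfl⟩ := isConj_iff.mp (show IsConj ta d from hd)
  apply orderOf_eq_prime
  · rw [conj_pow, pow_two, ta_sq, mul_one, mul_inv_cancel]
  · intro h
    apply ta_ne_one
    have e : ta = g⁻¹ * (g * ta * g⁻¹) * g := by group
    rw [e, h]; group

/-! ### the centralisers of the 3-transpositions -/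

/-- A group isomorphic to a central extension by an involution of a group with trivial centre, perfect,
is a non-split double cover. -/
theorem nsdc_of_equiv {H H' K : Type*} [Group H] [Group H'] [Group K] (E : H ≃* H')
    (hK : Subgroup.center K = ⊥) (hperf : commutator H' = ⊤) (z : H') (hz2 : z * z = 1) (hz1 : z ≠ 1)
    (hzc : ∀ c : H', c * z = z * c) (π : H' →* K) (hπ : Function.Surjective π)
    (hker : π.ker = Subgroup.zpowers z) : Cfsg.IsNonsplitDoubleCover H K := by
  have hperf' : commutator H = ⊤ :=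
    Cfsg.Agent.Helper28.commutator_top_of_surjective E.symm.toMonoidHom E.symm.surjective hperf
  have hsq : E.symm z * E.symm z = 1 := by rw [← MulEquiv.map_mul, hz2, MulEquiv.map_one]
  have hne : E.symm z ≠ 1 := fun h => hz1 ((MulEquiv.map_eq_one_iff _).mp h)
  have hcen : ∀ c : H, c * E.symm z = E.symm z * c := by
    intro c
    apply E.injective
    rw [MulEquiv.map_mul, MulEquiv.map_mul, MulEquiv.apply_symm_apply]
    exact hzc _
  have hk : (π.comp E.toMonoidHom).ker = Subgroup.zpowers (E.symm z) := by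
    ext c
    rw [MonoidHom.mem_ker, MonoidHom.comp_apply, ← MonoidHom.mem_ker, hker]
    constructor
    · intro h
      obtain ⟨k, hk⟩ := Subgroup.mem_zpowers_iff.mp h
      rw [Subgroup.mem_zpowers_iff]
      refine ⟨k, ?_⟩
      rw [← map_zpow, hk]
      exact E.symm_apply_apply c
    · intro h
      obtain ⟨k, hk⟩ := Subgroup.mem_zpowers_iff.mp h
      rw [Subgroup.mem_zpowers_iff]
      refine ⟨k, ?_⟩
      rw [← hk, map_zpow]
      show z ^ k = E (E.symm z) ^ k
      rw [MulEquiv.apply_symm_apply]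
  exact Cfsg.Agent.Helper28.nsdc_of_hom hK hperf' (E.symm z) hsq hne hcen (π.comp E.toMonoidHom)
    (hπ.comp E.surjective) hk

theorem cover : ∀ d ∈ conjugatesOf ta, ∃ (F : Type) (_ : Field F) (_ : Fintype F), Fintype.card F = 4 ∧
    Cfsg.IsNonsplitDoubleCover (Subgroup.centralizer ({d} : Set Fi22)) (Cfsg.PSU 6 F 2) := by
  intro d hd
  obtain ⟨g, rfl⟩ := isConj_iff.mp (show IsConj ta d from hd)
  refine ⟨GF4, GF4.instField, inferInstance, GF4.card_eq, ?_⟩
  exact nsdc_of_equiv
    ((Cfsg.Agent.Helper28.centralizerConj g ta).trans (MulEquiv.subgroupCongr centralizer_ta))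
    U6.center_PSU U6.hperf U6.zH U6.zH_sq U6.zH_ne_one U6.zH_central U6.piH U6.piH_surjective U6.piH_ker

end Cfsg.Agent.Helper28.F22T
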